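import Cfsg.Agent.Linear.Symplectic

/-!
The exceptional endomorphism of `Sp₄(F)` in characteristic two, given by 2x2 minors.
-/

set_option autoImplicit false
set_option linter.unusedSimpArgs false

namespace Cfsg.Agent.GraphAut25

open Matrix Cfsg.Agent.Linear.Symp

variable {F : Type*} [Field F]

local notation "ι" => Fin 2 ⊕ Fin 2
local notation "Mat" => Matrix (Fin 2 ⊕ Fin 2) (Fin 2 ⊕ Fin 2) F
local notation "Sp" => Matrix.symplecticGroup (Fin 2) F

/-- The coordinate pairs indexing the new basis. -/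
def pr : Fin 2 ⊕ Fin 2 → (Fin 2 ⊕ Fin 2) × (Fin 2 ⊕ Fin 2)
  | .inl 0 => (.inl 0, .inl 1)
  | .inl 1 => (.inl 0, .inr 1)
  | .inr 0 => (.inr 0, .inr 1)
  | .inr 1 => (.inl 1, .inr 0)

/-- A 2x2 minor (in characteristic two). -/
def mn (g : Matrix (Fin 2 ⊕ Fin 2) (Fin 2 ⊕ Fin 2) F)
    (P L : (Fin 2 ⊕ Fin 2) × (Fin 2 ⊕ Fin 2)) : F :=
  g P.1 L.1 * g P.2 L.2 + g P.1 L.2 * g P.2 L.1

/-- The matrix of minors. -/
def phiMat (g : Matrix (Fin 2 ⊕ Fin 2) (Fin 2 ⊕ Fin 2) F) :
    Matrix (Fin 2 ⊕ Fin 2) (Fin 2 ⊕ Fin 2) F :=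
  fun i j => mn g (pr i) (pr j)

theorem phiMat_one : phiMat (1 : Mat) = 1 := by
  ext i j
  rcases i with i | i <;> rcases j with j | j <;> fin_cases i <;> fin_cases j <;>
    simp [phiMat, mn, pr, Matrix.one_apply]

variable [CharP F 2]

theorem mn_mul (g h : Mat) (P L : ι × ι) :
    mn (g * h) P L =
      mn g P (.inl 0, .inl 1) * mn h (.inl 0, .inl 1) L + mn g P (.inl 0, .inr 1) * mn h (.inl 0, .inr 1) L +
      mn g P (.inr 0, .inr 1) * mn h (.inr 0, .inr 1) L + mn g P (.inl 1, .inr 0) * mn h (.inl 1, .inr 0) L +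
      mn g P (.inl 0, .inr 0) * mn h (.inl 0, .inr 0) L + mn g P (.inl 1, .inr 1) * mn h (.inl 1, .inr 1) L := by
  simp only [mn, Matrix.mul_apply, Fintype.sum_sum_type, Fin.sum_univ_two]
  ring_nf
  simp [CharTwo.two_eq_zero]

theorem rows_eq {g : Mat} (hg : g ∈ Matrix.symplecticGroup (Fin 2) F) (P : ι × ι) :
    mn g P (.inl 0, .inr 0) + mn g P (.inl 1, .inr 1) = Matrix.J (Fin 2) F P.1 P.2 := by
  rw [SymplecticGroup.mem_iff] at hg
  have h := congrFun (congrFun hg P.1) P.2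
  rw [← h]
  simp [mn, Matrix.mul_apply, Fintype.sum_sum_type, Fin.sum_univ_two, Matrix.J, Matrix.one_apply,
    CharTwo.neg_eq]
  ring

theorem cols_eq {g : Mat} (hg : g ∈ Matrix.symplecticGroup (Fin 2) F) (L : ι × ι) :
    mn g (.inl 0, .inr 0) L + mn g (.inl 1, .inr 1) L = Matrix.J (Fin 2) F L.1 L.2 := by
  rw [← rows_eq (SymplecticGroup.transpose_mem hg) L]
  simp only [mn, Matrix.transpose_apply]
  ring

theorem J_pr (i : ι) : Matrix.J (Fin 2) F (pr i).1 (pr i).2 = 0 := by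
  rcases i with i | i <;> fin_cases i <;> simp [pr, Matrix.J]

theorem phiMat_mul {g h : Mat} (hg : g ∈ Matrix.symplecticGroup (Fin 2) F)
    (hh : h ∈ Matrix.symplecticGroup (Fin 2) F) : phiMat (g * h) = phiMat g * phiMat h := by
  ext i j
  have e1 := (rows_eq hg (pr i)).trans (J_pr i)
  have e2 := (cols_eq hh (pr j)).trans (J_pr j)
  rw [CharTwo.add_eq_zero] at e1 e2
  rw [phiMat, mn_mul, e1, e2]
  simp [Matrix.mul_apply, phiMat, Fintype.sum_sum_type, Fin.sum_univ_two, pr, add_assoc,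
    CharTwo.add_self_eq_zero]

theorem phiMat_tau_mem (v : ι → F) (c : F) :
    phiMat ((tau v c : Sp) : Mat) ∈ Matrix.symplecticGroup (Fin 2) F := by
  rw [SymplecticGroup.mem_iff]
  have ev : ∀ k : ℕ, ((2 * k : ℕ) : F) = 0 := fun k => by
    rw [Nat.cast_mul, Nat.cast_two, CharTwo.two_eq_zero, zero_mul]
  have e4 : (4 : F) = 0 := by simpa using ev 2
  have e6 : (6 : F) = 0 := by simpa using ev 3
  have e8 : (8 : F) = 0 := by simpa using ev 4
  have e10 : (10 : F) = 0 := by simpa using ev 5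
  have e12 : (12 : F) = 0 := by simpa using ev 6
  have e16 : (16 : F) = 0 := by simpa using ev 8
  ext i j
  rcases i with i | i <;> rcases j with j | j <;> fin_cases i <;> fin_cases j <;>
    (simp [phiMat, mn, pr, tau, Cfsg.sympTransvection, Matrix.mul_apply, Fintype.sum_sum_type,
      Fin.sum_univ_two, Matrix.J, Matrix.one_apply, Matrix.vecMulVec_apply, Matrix.mulVec,
      dotProduct, CharTwo.neg_eq]
     try ring_nf
     try simp [CharTwo.two_eq_zero, e4, e6, e8, e10, e12, e16])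

theorem phiMat_mem (g : Sp) : phiMat (g : Mat) ∈ Matrix.symplecticGroup (Fin 2) F := by
  let K : Subgroup Sp :=
    { carrier := {g | phiMat (g : Mat) ∈ Matrix.symplecticGroup (Fin 2) F}
      one_mem' := by
        show phiMat ((1 : Sp) : Mat) ∈ Matrix.symplecticGroup (Fin 2) F
        rw [Submonoid.coe_one, phiMat_one]; exact one_mem _
      mul_mem' := fun {a b} ha hb => by
        show phiMat ((a * b : Sp) : Mat) ∈ Matrix.symplecticGroup (Fin 2) F
        rw [Submonoid.coe_mul, phiMat_mul a.2 b.2]; exact mul_mem ha hb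
      inv_mem' := fun {a} ha => by
        show phiMat ((a⁻¹ : Sp) : Mat) ∈ Matrix.symplecticGroup (Fin 2) F
        have h1 : phiMat ((a⁻¹ : Sp) : Mat) * phiMat (a : Mat) = 1 := by
          rw [← phiMat_mul (a⁻¹).2 a.2, ← Submonoid.coe_mul, inv_mul_cancel, Submonoid.coe_one, phiMat_one]
        have h2 : phiMat ((a⁻¹ : Sp) : Mat) = ((⟨phiMat (a : Mat), ha⟩⁻¹ : Sp) : Mat) := by
          rw [← Matrix.inv_eq_left_inv h1, SymplecticGroup.coe_inv']
        rw [h2]
        exact (⟨phiMat (a : Mat), ha⟩⁻¹ : Sp).2 }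
  have : g ∈ K := (closure_tau_le (K := K) phiMat_tau_mem) ▸ Subgroup.mem_top g
  exact this

/-- The exceptional endomorphism. -/
def phi : Matrix.symplecticGroup (Fin 2) F →* Matrix.symplecticGroup (Fin 2) F where
  toFun g := ⟨phiMat (g : Mat), phiMat_mem g⟩
  map_one' := Subtype.ext (show phiMat ((1 : Sp) : Mat) = 1 by rw [Submonoid.coe_one, phiMat_one])
  map_mul' g h := Subtype.ext (show phiMat ((g * h : Sp) : Mat) = phiMat (g : Mat) * phiMat (h : Mat) by
    rw [Submonoid.coe_mul, phiMat_mul g.2 h.2])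

theorem phi_coe (g : Sp) : (phi g : Mat) = phiMat (g : Mat) := rfl

end Cfsg.Agent.GraphAut25
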