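import Cfsg.Agent.AutPSp.Four
import Cfsg.Agent.GraphAut25.Map
import Cfsg.Agent.AutPSp25.Card

/-!
`Aut(Sp₄(q))`, `q` even: the two root classes, and the index of `ΓSp` is two.
-/

set_option autoImplicit false
set_option linter.unusedSectionVars false

namespace Cfsg.Agent.GraphAut25

open Matrix Cfsg.Agent.Linear.Symp Cfsg.Agent.SympSub Cfsg.Agent.AutPSp
open Cfsg.Agent.Forms (sympBil sympBil_apply sympBil_isAlt sympBil_nondegenerate)

variable {F : Type*} [Field F] [Fintype F]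

theorem tau_conj_class (h2 : (2 : F) = 0) :
    ∀ x y : Cfsg.PSp 2 F, IsTau x → IsTau y → ∃ k, y = k * x * k⁻¹ := by
  rintro _ _ ⟨a, c, ha, hc, rfl⟩ ⟨b, d, hb, hd, rfl⟩
  obtain ⟨s, hs⟩ := exists_sq_eq h2 c
  obtain ⟨t, ht⟩ := exists_sq_eq h2 d
  have hs0 : s ≠ 0 := fun e => hc (by rw [← hs, e]; ring)
  have ht0 : t ≠ 0 := fun e => hd (by rw [← ht, e]; ring)
  obtain ⟨g, hg⟩ := exists_app_eq (smul_ne_zero hs0 ha) (smul_ne_zero ht0 hb)
  refine ⟨proj g, ?_⟩
  rw [← map_inv, ← map_mul, ← map_mul,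
    show tau a c = tau (s • a) 1 by rw [tau_smul, one_mul, hs],
    show tau b d = tau (t • b) 1 by rw [tau_smul, one_mul, ht], tau_conj, hg]

theorem short_conj_class (h2 : (2 : F) = 0) :
    ∀ x y : Cfsg.PSp 2 F, IsShort x → IsShort y → ∃ k, y = k * x * k⁻¹ := by
  rintro _ _ ⟨a, w, hB, hli, rfl⟩ ⟨a', w', hB', hli', rfl⟩
  have hiso : ∀ {a w : Fin 2 ⊕ Fin 2 → F}, sympBil 2 F a w = 0 → LinearIndependent F ![a, w] →
      IsIsoTuple ![a, w] := fun {a w} hB hli => ⟨hli, fun i j => by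
    fin_cases i <;> fin_cases j <;> simp [hB, bil_swap w a, sympBil_isAlt.self_eq_zero]⟩
  obtain ⟨g, hg⟩ := exists_move (hiso hB hli) (hiso hB' hli')
  obtain ⟨g', rfl⟩ := (spEquiv 2 F).surjective g
  refine ⟨proj g', ?_⟩
  rw [← map_inv, ← map_mul, ← map_mul, short_conj, show app g' a = a' from hg 0,
    show app g' w = w' from hg 1]

theorem isTau_or_isShort (h2 : (2 : F) = 0) :
    ∀ (γ : MulAut (Cfsg.PSp 2 F)) (x : Cfsg.PSp 2 F), IsTau x → IsTau (γ x) ∨ IsShort (γ x) := by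
  classical
  intro γ x hx
  rcases apply_cases le_rfl γ hx with h | ⟨-, z, a, w, e, hB, hli, hform, hinv, k, hk⟩
  · exact Or.inl h
  refine Or.inr ?_
  rw [hk]
  refine isShort_conj ⟨a, w, hB, hli, ?_⟩ k
  congr 1
  rcases eq_or_ne e 0 with rfl | he
  · refine sp_ext fun v => ?_
    rw [hform, app_short hB, one_mul, one_mul, zero_mul, add_zero]
  exfalso
  -- the class of a mixed element is too large
  set q := Fintype.card F with hq
  have hq2 : 2 ≤ q := Fintype.one_lt_card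
  have ha : a ≠ 0 := fun h => hli.ne_zero 0 (by simpa using h)
  have hproj : Function.Injective (proj : Matrix.symplecticGroup (Fin 2) F → Cfsg.PSp 2 F) := by
    intro s t h
    rw [proj_apply, proj_apply, QuotientGroup.eq] at h
    obtain ⟨c, hc, hcv⟩ := center_scalar h
    have hc1 : c = 1 := by
      have : (c - 1) * (c - 1) = 0 := by linear_combination hc + (1 - c) * h2
      exact sub_eq_zero.1 (mul_self_eq_zero.1 this)
    exact inv_mul_eq_one.1 (sp_ext fun v => by rw [hcv, hc1, one_smul, app_one])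
  let T := {s : Fin 2 → (Fin 2 ⊕ Fin 2 → F) // IsIsoTuple s}
  have haw : IsIsoTuple ![a, w] := ⟨hli, fun i j => by
    fin_cases i <;> fin_cases j <;> simp [hB, bil_swap w a, sympBil_isAlt.self_eq_zero]⟩
  have hmove : ∀ s : T, ∃ g, app g a = s.1 0 ∧ app g w = s.1 1 := fun s => by
    obtain ⟨g, hg⟩ := exists_move haw s.2
    obtain ⟨g', rfl⟩ := (spEquiv 2 F).surjective g
    exact ⟨g', hg 0, hg 1⟩
  choose g hg0 hg1 using hmove
  have hv : ∀ t, ∃ v : Fin 2 ⊕ Fin 2 → F, v ≠ 0 ∧ γ⁻¹ (proj (g t * z * (g t)⁻¹)) = proj (tau v 1) := fun t => by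
    obtain ⟨b, c, hb, hc, hbc⟩ := hinv (g t)
    obtain ⟨d, hd⟩ := exists_sq_eq h2 c
    have hd0 : d ≠ 0 := fun e => hc (by rw [← hd, e]; ring)
    exact ⟨d • b, smul_ne_zero hd0 hb, by rw [tau_smul, one_mul, hd]; exact hbc⟩
  choose v hv0 hv using hv
  let Φ : T → {u : Fin 2 ⊕ Fin 2 → F // u ≠ 0} := fun s => ⟨v s, hv0 s⟩
  -- the invariant `B(z x - x, x) = e B(x,a)^2`
  have hinvform : ∀ (s : T) (x : Fin 2 ⊕ Fin 2 → F),
      sympBil 2 F (app (g s * z * (g s)⁻¹) x - x) x = e * sympBil 2 F x (s.1 0) ^ 2 := by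
    intro s x
    obtain ⟨x, rfl⟩ : ∃ x', x = app (g s) x' :=
      ⟨app (g s)⁻¹ x, by rw [← app_mul, mul_inv_cancel, app_one]⟩
    rw [app_mul, app_mul, app_inv_app, ← hg0, sympBil_app]
    have : app (g s) (app z x) - app (g s) x = app (g s) (app z x - x) :=
      (Matrix.mulVec_sub _ _ _).symm
    rw [this, sympBil_app, hform, add_assoc, add_sub_cancel_left]
    simp only [map_add, map_smul, LinearMap.add_apply, LinearMap.smul_apply, smul_eq_mul,
      bil_swap w x, bil_swap a x]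
    linear_combination -(sympBil 2 F x a * sympBil 2 F x w + e * sympBil 2 F x a ^ 2) * h2
  have hfib : ∀ s s' : T, Φ s = Φ s' →
      (∃ c : F, c ≠ 0 ∧ s'.1 0 = c • s.1 0) ∧ ∃ c d : F, d ≠ 0 ∧ s'.1 1 = c • s.1 0 + d • s.1 1 := by
    intro s s' h
    have he' : g s * z * (g s)⁻¹ = g s' * z * (g s')⁻¹ := hproj (γ⁻¹.injective (by
      rw [hv, hv, show v s = v s' from congrArg Subtype.val h]))
    obtain ⟨c, hc⟩ := exists_eq_smul_of_orth (a := s.1 0) (b := s'.1 0) fun x hx => by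
      have h1 := hinvform s x
      rw [he', hinvform s' x, hx] at h1
      simpa [he] using h1
    have h0 : s'.1 0 ≠ 0 := s'.2.1.ne_zero 0
    have hc0 : c ≠ 0 := fun e => h0 (by rw [← hc, e, zero_smul])
    have hrange : ∀ (t : T) (x : Fin 2 ⊕ Fin 2 → F),
        app (g t * z * (g t)⁻¹) x - x ∈ Submodule.span F ({t.1 0, t.1 1} : Set _) := by
      intro t x
      obtain ⟨x, rfl⟩ : ∃ x', x = app (g t) x' :=
        ⟨app (g t)⁻¹ x, by rw [← app_mul, mul_inv_cancel, app_one]⟩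
      rw [app_mul, app_mul, app_inv_app,
        show app (g t) (app z x) - app (g t) x = app (g t) (app z x - x) from
          (Matrix.mulVec_sub _ _ _).symm, hform, add_assoc, add_sub_cancel_left,
        show app (g t) (sympBil 2 F x a • w + (sympBil 2 F x w + e * sympBil 2 F x a) • a) =
          sympBil 2 F x a • app (g t) w + (sympBil 2 F x w + e * sympBil 2 F x a) • app (g t) a by
          simp [app, Matrix.mulVec_add, Matrix.mulVec_smul], hg0, hg1]
      exact Submodule.mem_span_pair.2 ⟨_, _, add_comm _ _⟩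
    obtain ⟨ya, hya⟩ := exists_bil_eq_one' ha
    have hw' : app (g s') (app z ya - ya) ∈ Submodule.span F ({s.1 0, s.1 1} : Set _) := by
      rw [show app (g s') (app z ya - ya) = app (g s') (app z ya) - app (g s') ya from
        Matrix.mulVec_sub _ _ _]
      have := hrange s (app (g s') ya)
      rw [he', app_mul, app_mul, app_inv_app] at this
      exact this
    rw [hform, add_assoc, add_sub_cancel_left, hya, one_smul,
      show app (g s') (w + (sympBil 2 F ya w + e * 1) • a) =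
        app (g s') w + (sympBil 2 F ya w + e * 1) • app (g s') a by
        simp [app, Matrix.mulVec_add, Matrix.mulVec_smul], hg0, hg1] at hw'
    have hmem : s'.1 1 ∈ Submodule.span F ({s.1 0, s.1 1} : Set _) := by
      have h' := Submodule.sub_mem _ hw' (Submodule.smul_mem _ (sympBil 2 F ya w + e * 1)
        (show s'.1 0 ∈ Submodule.span F ({s.1 0, s.1 1} : Set _) from
          hc ▸ Submodule.smul_mem _ _ (Submodule.subset_span (by simp))))
      simpa using h'
    obtain ⟨c', d', hcd⟩ := Submodule.mem_span_pair.1 hmem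
    refine ⟨⟨c, hc0, hc.symm⟩, c', d', fun hd => ?_, hcd.symm⟩
    rw [hd, zero_smul, add_zero] at hcd
    have hp := s'.2.1
    rw [← show ![s'.1 0, s'.1 1] = s'.1 from funext fun i => by fin_cases i <;> rfl,
      LinearIndependent.pair_iff' h0] at hp
    exact hp (c' / c) (by rw [← hc, smul_smul, div_mul_cancel₀ _ hc0, hcd])
  have hfibcard : ∀ u, (Finset.univ.filter fun s => Φ s = u).card ≤ (q - 1) * (q * (q - 1)) := by
    intro u
    rcases (Finset.univ.filter fun s => Φ s = u).eq_empty_or_nonempty with h | ⟨s, hs⟩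
    · simp [h]
    have hsu := (Finset.mem_filter.1 hs).2
    have hsub : ∀ s' ∈ Finset.univ.filter (fun s => Φ s = u), ∃ c : {x : F // x ≠ 0} × F × {x : F // x ≠ 0},
        s'.1 0 = (c.1 : F) • s.1 0 ∧ s'.1 1 = c.2.1 • s.1 0 + (c.2.2 : F) • s.1 1 := by
      intro s' hs'
      obtain ⟨⟨c, hc0, hc⟩, c', d', hd0, hcd⟩ := hfib s s' (hsu.trans (Finset.mem_filter.1 hs').2.symm)
      exact ⟨(⟨c, hc0⟩, c', ⟨d', hd0⟩), hc, hcd⟩
    choose c hc using hsub
    have := Finset.card_le_card_of_injOn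
      (s := (Finset.univ.filter fun s => Φ s = u).attach)
      (t := (Finset.univ : Finset ({x : F // x ≠ 0} × F × {x : F // x ≠ 0})))
      (fun s' => c s'.1 s'.2) (fun _ _ => Finset.mem_univ _) (fun x _ y _ hxy => by
        apply Subtype.ext
        apply Subtype.ext
        simp only at hxy
        funext i
        fin_cases i
        · show x.1.1 0 = y.1.1 0; rw [(hc x.1 x.2).1, (hc y.1 y.2).1, hxy]
        · show x.1.1 1 = y.1.1 1; rw [(hc x.1 x.2).2, (hc y.1 y.2).2, hxy])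
    rw [Finset.card_attach] at this
    refine this.trans (le_of_eq ?_)
    rw [Finset.card_univ, Fintype.card_prod, Fintype.card_prod, Fintype.card_subtype_compl,
      Fintype.card_subtype_eq]
  have hcount := Finset.card_le_mul_card_image (f := Φ) (Finset.univ : Finset T) _
    (fun u _ => hfibcard u)
  have hT : Fintype.card T = (q ^ 4 - 1) * (q ^ 3 - q) := by
    rw [← Nat.card_eq_fintype_card, card_isoTuple, Finset.prod_range_succ, Finset.prod_range_one]
    simp [hq]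
  have hV : Fintype.card {u : Fin 2 ⊕ Fin 2 → F // u ≠ 0} = q ^ 4 - 1 := by
    rw [Fintype.card_subtype_compl, Fintype.card_subtype_eq, Fintype.card_fun, Fintype.card_sum,
      Fintype.card_fin]
  rw [Finset.card_univ, hT] at hcount
  have himcard : (Finset.image Φ Finset.univ).card ≤ q ^ 4 - 1 := hV ▸ Finset.card_le_univ _
  have hN : 0 < q ^ 4 - 1 := by
    have : 1 < q ^ 4 := Nat.one_lt_pow (by omega) hq2
    omega
  have hbig : (q - 1) * (q * (q - 1)) < q ^ 3 - q := by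
    obtain ⟨k, hk⟩ : ∃ k, q = k + 2 := ⟨q - 2, by omega⟩
    rw [hk, show k + 2 - 1 = k + 1 by omega]
    have h3 : (k + 2) ^ 3 = (k + 1) * ((k + 2) * (k + 1)) + (k + 2) + 2 * (k + 1) * (k + 2) := by ring
    have : 0 < 2 * (k + 1) * (k + 2) := by positivity
    omega
  have h5 : (q ^ 4 - 1) * (q ^ 3 - q) ≤ (q - 1) * (q * (q - 1)) * (q ^ 4 - 1) :=
    hcount.trans (Nat.mul_le_mul_left _ himcard)
  rw [mul_comm ((q - 1) * (q * (q - 1)))] at h5
  exact absurd (Nat.le_of_mul_le_mul_left h5 hN) (by omega)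

theorem exists_isTau : ∃ x : Cfsg.PSp 2 F, IsTau x :=
  ⟨_, Pi.single (.inl 0) 1, 1, by simp, one_ne_zero, rfl⟩

/-- An automorphism mapping one transvection to a transvection is semilinear. -/
theorem mem_gamma_of_tau (h2 : (2 : F) = 0) {β : MulAut (Cfsg.PSp 2 F)} {x : Cfsg.PSp 2 F}
    (hx : IsTau x) (hb : IsTau (β x)) : β ∈ Cfsg.gammaPSp 2 F := by
  refine AutPSp25.mem_gammaPSp.2 (exists_decomp_of_preserves le_rfl β (fun y hy => ?_) fun y hy => ?_)
  · obtain ⟨k, rfl⟩ := tau_conj_class h2 x y hx hy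
    rw [map_mul, map_mul, map_inv]
    exact isTau_conj hb _
  · obtain ⟨k, rfl⟩ := tau_conj_class h2 (β x) y hb hy
    rw [map_mul, map_mul, map_inv]
    exact isTau_conj (by simpa using hx) _

theorem isTau_of_mem_gamma {β : MulAut (Cfsg.PSp 2 F)} (hβ : β ∈ Cfsg.gammaPSp 2 F)
    {x : Cfsg.PSp 2 F} (hx : IsTau x) : IsTau (β x) := by
  obtain ⟨g, σ, rfl⟩ := AutPSp25.mem_gammaPSp.1 hβ
  obtain ⟨a, c, ha, hc, rfl⟩ := hx
  obtain ⟨ν, hν, h⟩ := conj_field_tau g σ
  exact ⟨_, σ c * ν, mulVec_ne_zero _ (vmap_ne_zero σ ha),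
    mul_ne_zero ((map_ne_zero σ).2 hc) hν, h a c⟩

theorem psp_proj_injective (h2 : (2 : F) = 0) :
    Function.Injective (proj : Matrix.symplecticGroup (Fin 2) F → Cfsg.PSp 2 F) := by
  intro s t h
  rw [proj_apply, proj_apply, QuotientGroup.eq] at h
  obtain ⟨c, hc, hcv⟩ := center_scalar h
  have hc1 : c = 1 := by
    have : (c - 1) * (c - 1) = 0 := by linear_combination hc + (1 - c) * h2
    exact sub_eq_zero.1 (mul_self_eq_zero.1 this)
  exact inv_mul_eq_one.1 (sp_ext fun v => by rw [hcv, hc1, one_smul, app_one])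

theorem not_isTau_phi [CharP F 2] :
    ¬ IsTau (proj (phi (tau (Pi.single (Sum.inl 0) 1) (1 : F))) : Cfsg.PSp 2 F) := by
  rintro ⟨b, c, hb, hc, h⟩
  have h' := psp_proj_injective (CharTwo.two_eq_zero) h
  set s := phi (tau (Pi.single (Sum.inl 0) 1) (1 : F)) with hs
  have key : ∀ j i : Fin 2 ⊕ Fin 2, app s (Pi.single j 1) i =
      (Pi.single j 1 : Fin 2 ⊕ Fin 2 → F) i + c * sympBil 2 F (Pi.single j 1) b * b i := fun j i => by
    rw [h', app_tau]; simp
  have ent : ∀ j i : Fin 2 ⊕ Fin 2, app s (Pi.single j 1) i =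
      phiMat ((tau (Pi.single (Sum.inl 0) 1) (1 : F) : Matrix.symplecticGroup (Fin 2) F) : Matrix _ _ F) i j :=
    fun j i => by simp [app, hs, phi_coe, Matrix.mulVec_single]
  have hval : ∀ i j, phiMat ((tau (Pi.single (Sum.inl 0) 1) (1 : F) : Matrix.symplecticGroup (Fin 2) F) : Matrix _ _ F) i j =
      if i = j ∨ (i = Sum.inl 0 ∧ j = Sum.inr 1) ∨ (i = Sum.inl 1 ∧ j = Sum.inr 0) then 1 else 0 := by
    intro i j
    rcases i with i | i <;> rcases j with j | j <;> fin_cases i <;> fin_cases j <;>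
      simp [phiMat, mn, pr, tau, Cfsg.sympTransvection, Matrix.one_apply, Matrix.vecMulVec_apply,
        Matrix.J, Pi.single_apply, CharTwo.neg_eq]
  set β : Fin 2 ⊕ Fin 2 → F := fun j => c * sympBil 2 F (Pi.single j 1) b with hβ
  have k : ∀ j i, i ≠ j → β j * b i =
      if i = j ∨ (i = Sum.inl 0 ∧ j = Sum.inr 1) ∨ (i = Sum.inl 1 ∧ j = Sum.inr 0) then 1 else 0 := by
    intro j i hij
    rw [← hval, ← ent, key, Pi.single_eq_of_ne hij, zero_add]
  have k1 : β (Sum.inr 1) * b (Sum.inl 0) = 1 := by rw [k _ _ (by decide)]; simp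
  have k2 : β (Sum.inr 1) * b (Sum.inl 1) = 0 := by rw [k _ _ (by decide)]; simp
  have k4 : β (Sum.inr 0) * b (Sum.inl 1) = 1 := by rw [k _ _ (by decide)]; simp
  rcases mul_eq_zero.1 k2 with h0 | h0
  · rw [h0, zero_mul] at k1; exact zero_ne_one k1
  · rw [h0, mul_zero] at k4; exact zero_ne_one k4

theorem phi_bijective [CharP F 2] (h4 : 3 ≤ Fintype.card F) :
    Function.Bijective (phi (F := F)) := by
  have h2 : (2 : F) = 0 := CharTwo.two_eq_zero
  have := isSimpleGroup_PSp_of_perfect (m := 2) (commutator_eq_top (F := F) (m := 2) (.inr (.inl ⟨rfl, h4⟩)))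
  let e : Matrix.symplecticGroup (Fin 2) F ≃* Cfsg.PSp 2 F :=
    MulEquiv.ofBijective proj ⟨psp_proj_injective h2, proj_surjective⟩
  have hne : phi (tau (Pi.single (Sum.inl 0) 1) (1 : F)) ≠ 1 := by
    intro h
    have hcoe := congrArg (fun s : Matrix.symplecticGroup (Fin 2) F =>
      (s : Matrix (Fin 2 ⊕ Fin 2) (Fin 2 ⊕ Fin 2) F) (Sum.inl 0) (Sum.inr 1)) h
    simp [phi_coe, phiMat, mn, pr, tau, Cfsg.sympTransvection, Matrix.one_apply, Matrix.vecMulVec_apply,
      Matrix.J, Pi.single_apply, CharTwo.neg_eq] at hcoe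
  have hinj : Function.Injective (phi.comp e.symm.toMonoidHom) := by
    rw [← MonoidHom.ker_eq_bot_iff]
    refine (Subgroup.Normal.eq_bot_or_eq_top (MonoidHom.normal_ker _)).resolve_right fun h => hne ?_
    rw [MonoidHom.ker_eq_top_iff] at h
    have := DFunLike.congr_fun h (e (tau (Pi.single (Sum.inl 0) 1) (1 : F)))
    simpa using this
  have : Function.Injective (phi (F := F)) := fun a b hab =>
    e.injective (hinj (by simpa using hab))
  exact ⟨this, (Finite.injective_iff_surjective).1 this⟩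

theorem index_gamma [CharP F 2] (h4 : 3 ≤ Fintype.card F) : (Cfsg.gammaPSp 2 F).index = 2 := by
  have h2 : (2 : F) = 0 := CharTwo.two_eq_zero
  let γ : MulAut (Cfsg.PSp 2 F) := pspAut (MulEquiv.ofBijective phi (phi_bijective h4))
  let x : Cfsg.PSp 2 F := proj (tau (Pi.single (Sum.inl 0) 1) (1 : F))
  have hx : IsTau x := ⟨_, 1, by simp, one_ne_zero, rfl⟩
  have hγ : ¬ IsTau (γ x) := not_isTau_phi
  rw [Subgroup.index_eq_two_iff]
  refine ⟨γ, fun β => ?_⟩
  by_cases hβ : β ∈ Cfsg.gammaPSp 2 F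
  · refine Or.inr ⟨hβ, fun h => hγ ?_⟩
    have hβ' := inv_mem hβ
    have := isTau_of_mem_gamma (mul_mem hβ' h) hx
    simpa using this
  · refine Or.inl ⟨?_, hβ⟩
    have hs : IsShort (β⁻¹ x) := (isTau_or_isShort h2 β⁻¹ x hx).resolve_left fun h =>
      hβ (inv_mem_iff.1 (mem_gamma_of_tau h2 hx h))
    have hs' : IsShort (γ x) := (isTau_or_isShort h2 γ x hx).resolve_left hγ
    obtain ⟨k, hk⟩ := short_conj_class h2 _ _ hs hs'
    refine mem_gamma_of_tau h2 hx ?_
    rw [MulAut.mul_apply, hk, map_mul, map_mul, map_inv]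
    exact isTau_conj (by simpa using hx) _

theorem card_mulAut [CharP F 2] (f : ℕ) (hf : 1 ≤ f) (hF : Fintype.card F = 2 ^ f)
    (h4 : 3 ≤ Fintype.card F) :
    Nat.card (MulAut (Cfsg.PSp 2 F)) = 2 * f * Nat.card (Cfsg.PSp 2 F) := by
  rw [← Subgroup.index_mul_card (Cfsg.gammaPSp 2 F), index_gamma h4,
    AutPSp25.card_gammaPSp 2 f hf hF le_rfl]
  have : Nat.gcd 2 (2 ^ f - 1) = 1 := by
    refine Nat.coprime_two_left.2 ?_
    obtain ⟨k, rfl⟩ : ∃ k, f = k + 1 := ⟨f - 1, by omega⟩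
    exact ⟨2 ^ k - 1, by have := Nat.one_le_two_pow (n := k); rw [pow_succ]; omega⟩
  rw [this, one_mul, mul_assoc]

end Cfsg.Agent.GraphAut25
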